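import Cfsg.Agent.SchurUFour.CoverData
import Cfsg.Agent.SchurBound.Cores
import Cfsg.Agent.SUPres.Small.SuFourThree.Main
import Cfsg.Agent.PSUMult.Main
import Cfsg.Agent.S0278

set_option autoImplicit false
set_option maxRecDepth 100000

/-!
A stem extension of `SU_4(3)` with kernel `(Z/3)^2`, from monomial lifts on 540 points.
-/

namespace Cfsg.Agent.SchurUFour

open Cfsg.Agent.SUPres.Small Cfsg.Agent.CosetCert Cfsg.Agent.CosetEnum
open scoped commutatorElement

universe u

/-- The values of the phases. -/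
abbrev V9 : Type := ZMod 3 × ZMod 3

/-- The image of a point. -/
noncomputable def pt (l x : ℕ) : ℕ :=
  Nat.land (Nat.shiftRight (permTab.getD l 0) (Nat.mul 16 x)) 65535

/-- The phase at a point. -/
noncomputable def ph (l x : ℕ) : ℕ :=
  Nat.land (Nat.shiftRight (phaseTab.getD l 0) (Nat.mul 4 x)) 15

/-- The sum of coded phases. -/
def vadd (a b : ℕ) : ℕ :=
  Nat.add (Nat.mod (Nat.add a b) 3) (Nat.mul 3 (Nat.mod (Nat.add (Nat.div a 3) (Nat.div b 3)) 3))

/-- The phase of a code. -/
def toV (a : ℕ) : V9 := ((a : ZMod 3), ((a / 3 : ℕ) : ZMod 3))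

theorem toV_vadd : ∀ a < 9, ∀ b < 9, vadd a b < 9 ∧ toV (vadd a b) = toV a + toV b := by
  decide +kernel

/-- A word moving a point and adding phases. -/
noncomputable def runW (w : List ℕ) : ℕ → ℕ → ℕ × ℕ :=
  List.rec (motive := fun _ => ℕ → ℕ → ℕ × ℕ) (fun x v => (x, v))
    (fun l _ ih x v => ih (pt l x) (vadd v (ph l x))) w

theorem tab_ok : ∀ l < 7, ∀ x < 540, pt l x < 540 ∧ ph l x < 9 ∧ pt (linv l) (pt l x) = x ∧
    vadd (ph l x) (ph (linv l) (pt l x)) = 0 := by
  decide +kernel

theorem tab_zero : ∀ x < 540, pt 0 x = x ∧ ph 0 x = 0 := by decide +kernel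

theorem letters_ok : ∀ u ∈ SuFourThree.rels, ∀ l ∈ u, l < 7 := by decide +kernel

theorem rels_run : ∀ r < 12, relPhase.getD r 0 < 9 ∧
    ∀ x < 540, runW (SuFourThree.rels.getD r []) x 0 = (x, relPhase.getD r 0) := by
  decide +kernel

theorem rels_length : SuFourThree.rels.length = 12 := by decide +kernel

/-- The first commutator word. -/
def wordA : List ℕ := pairA ++ pairA' ++ winv pairA ++ winv pairA'

/-- The second commutator word. -/
def wordB : List ℕ := pairB ++ pairB' ++ winv pairB ++ winv pairB'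

theorem words_lt : (∀ l ∈ wordA, l < 7) ∧ (∀ l ∈ wordB, l < 7) := by decide +kernel

theorem words_run : runW wordA 0 0 = (0, 1) ∧ runW wordB 0 0 = (0, 3) := by decide +kernel

theorem words_fix : ∀ j ∈ List.range 4,
    vrun K9.codes 4 SuFourThree.lets wordA (Codes.basisv 4 j) = Codes.basisv 4 j ∧
    vrun K9.codes 4 SuFourThree.lets wordB (Codes.basisv 4 j) = Codes.basisv 4 j := by
  decide +kernel

theorem linv_lt : ∀ l < 7, linv l < 7 ∧ linv (linv l) = l := by decide +kernel

/-- The monomial lift of a letter. -/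
noncomputable def stepF (l : ℕ) (p : Fin 540 × V9) : Fin 540 × V9 :=
  if h : l < 7 then (⟨pt l p.1, (tab_ok l h p.1 p.1.2).1⟩, p.2 + toV (ph l p.1)) else p

theorem stepF_inv (l : ℕ) (hl : l < 7) (p : Fin 540 × V9) : stepF (linv l) (stepF l p) = p := by
  obtain ⟨x, v⟩ := p
  obtain ⟨hb, hph, hpt, hv⟩ := tab_ok l hl x x.2
  have hl' := (linv_lt l hl).1
  simp only [stepF, hl, hl', dite_true]
  refine Prod.ext (Fin.ext hpt) ?_
  show v + toV (ph l x) + toV (ph (linv l) (pt l x)) = v
  rw [add_assoc, ← (toV_vadd _ hph _ (tab_ok _ hl' _ hb).2.1).2, hv]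
  simp [toV]

/-- The monomial lift of a letter. -/
noncomputable def lift (l : ℕ) : Equiv.Perm (Fin 540 × V9) :=
  if h : l < 7 then
    { toFun := stepF l
      invFun := stepF (linv l)
      left_inv := stepF_inv l h
      right_inv := fun p => by
        have := stepF_inv (linv l) (linv_lt l h).1 p
        rwa [(linv_lt l h).2] at this }
  else 1

theorem lift_apply (l : ℕ) (p : Fin 540 × V9) : lift l p = stepF l p := by
  unfold lift
  split
  · rfl
  · next h => simp [stepF, h]

theorem lift_zero : lift 0 = 1 := by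
  refine Equiv.ext fun p => ?_
  rw [lift_apply]
  obtain ⟨h1, h2⟩ := tab_zero p.1 p.1.2
  simp only [stepF, show (0 : ℕ) < 7 by norm_num, dite_true, h1, h2]
  exact Prod.ext rfl ((congrArg (p.2 + ·) (show toV 0 = 0 by decide)).trans (add_zero _))

theorem lift_linv (l : ℕ) : lift (linv l) = (lift l)⁻¹ := by
  rcases lt_or_ge l 7 with h | h
  · refine eq_inv_of_mul_eq_one_left (Equiv.ext fun p => ?_)
    rw [Equiv.Perm.mul_apply, lift_apply, lift_apply, stepF_inv l h]
    rfl
  · have e : linv l = 0 := List.getD_eq_default _ _ (by simpa [invl] using h)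
    rw [e, lift_zero, lift, dif_neg (by omega), inv_one]

/-- The translations. -/
def shift : Multiplicative V9 →* Equiv.Perm (Fin 540 × V9) where
  toFun a := Equiv.prodCongr (Equiv.refl _) (Equiv.addRight (Multiplicative.toAdd a))
  map_one' := Equiv.ext fun p => by simp
  map_mul' a b := Equiv.ext fun p => Prod.ext rfl (by
    show p.2 + Multiplicative.toAdd (a * b) =
      p.2 + Multiplicative.toAdd b + Multiplicative.toAdd a
    rw [toAdd_mul]; abel)

theorem shift_apply (a : Multiplicative V9) (p : Fin 540 × V9) :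
    shift a p = (p.1, p.2 + Multiplicative.toAdd a) := rfl

theorem lift_shift (l : ℕ) (a : Multiplicative V9) : Commute (lift l) (shift a) := by
  refine Equiv.ext fun p => ?_
  simp only [Equiv.Perm.mul_apply, lift_apply, shift_apply, stepF]
  split
  · exact Prod.ext rfl (add_right_comm _ _ _)
  · rfl

theorem pval_shift (w : List ℕ) (a : Multiplicative V9) : Commute (pval lift w) (shift a) := by
  induction w with
  | nil => exact Commute.one_left _
  | cons l ls ih => exact ih.mul_left (lift_shift l a)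

theorem pval_lift : ∀ w : List ℕ, (∀ l ∈ w, l < 7) → ∀ (x v : ℕ) (hx : x < 540), v < 9 →
    ∃ h : (runW w x v).1 < 540, (runW w x v).2 < 9 ∧
      pval lift w (⟨x, hx⟩, toV v) = (⟨(runW w x v).1, h⟩, toV (runW w x v).2)
  | [], _, x, v, hx, hv => ⟨hx, hv, rfl⟩
  | l :: ls, hw, x, v, hx, hv => by
    have hl := hw l List.mem_cons_self
    obtain ⟨hb, hph, -, -⟩ := tab_ok l hl x hx
    obtain ⟨hlt, hsum⟩ := toV_vadd v hv _ hph
    obtain ⟨h1, h2, h3⟩ := pval_lift ls (fun m hm => hw m (List.mem_cons_of_mem _ hm))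
      (pt l x) (vadd v (ph l x)) hb hlt
    refine ⟨h1, h2, ?_⟩
    show (pval lift ls * lift l) _ = _
    rw [Equiv.Perm.mul_apply, lift_apply, stepF, dif_pos hl]
    rw [hsum] at h3
    exact h3

theorem pval_rel {u : List ℕ} (hu : u ∈ SuFourThree.rels) : pval lift u ∈ shift.range := by
  obtain ⟨r, hr, rfl⟩ := List.mem_iff_getElem.1 hu
  obtain ⟨hc, hrun⟩ := rels_run r (rels_length ▸ hr)
  rw [List.getD_eq_getElem _ _ hr] at hrun
  refine ⟨Multiplicative.ofAdd (toV (relPhase.getD r 0)), ?_⟩
  refine Equiv.ext fun p => ?_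
  obtain ⟨x, v⟩ := p
  have e : (x, v) = shift (Multiplicative.ofAdd v) (x, 0) := by simp [shift_apply]
  rw [e, ← Equiv.Perm.mul_apply (pval lift _), (pval_shift _ _).eq, Equiv.Perm.mul_apply]
  obtain ⟨h1, -, h3⟩ := pval_lift _ (letters_ok _ (List.getElem_mem hr)) x 0 x.2 (by norm_num)
  rw [show toV 0 = 0 by simp [toV]] at h3
  rw [show ((⟨(x : ℕ), x.2⟩ : Fin 540)) = x from rfl] at h3
  rw [h3]
  have hx := hrun x x.2
  refine Prod.ext (Fin.ext ?_) ?_
  · simp [shift_apply, hx]
  · simp [shift_apply, hx, add_comm]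

theorem pval_word {w : List ℕ} (hw : ∀ l ∈ w, l < 7) {a : ℕ} (hrun : runW w 0 0 = (0, a))
    {b : Multiplicative V9} (hb : pval lift w = shift b) :
    b = Multiplicative.ofAdd (toV a) := by
  obtain ⟨h1, -, h3⟩ := pval_lift w hw 0 0 (by norm_num) (by norm_num)
  rw [hb, shift_apply] at h3
  have := congrArg Prod.snd h3
  simp only [hrun, show toV 0 = 0 by decide, zero_add] at this
  exact Multiplicative.toAdd.injective this

theorem winv_comm {G : Type*} [Group G] (g : ℕ → G) (hg : ∀ l, g (linv l) = (g l)⁻¹)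
    (a b : List ℕ) : pval g (a ++ b ++ winv a ++ winv b) = ⁅(pval g b)⁻¹, (pval g a)⁻¹⁆ := by
  rw [pval_append, pval_append, pval_append, pval_winv hg, pval_winv hg, commutatorElement_def,
    inv_inv, inv_inv]
  group

theorem v_basis : ∀ a : V9, a = a.1.val • toV 1 + a.2.val • toV 3 := by decide +kernel

theorem card_SU_four' {F : Type u} [Field F] [Fintype F] (hF : Fintype.card F = 3 ^ 2) :
    Nat.card (Cfsg.SU 4 F 3) = 13063680 := by
  have h := S0278.result hF 4 (by norm_num)
  generalize Nat.card (Cfsg.SU 4 F 3) = m at h ⊢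
  norm_num [Finset.prod_range_succ, Nat.even_iff] at h
  omega

/-- **The triple cover squared of `SU_4(3)`.** -/
theorem exists_cover {F : Type u} [Field F] [Fintype F] (hF : Fintype.card F = 3 ^ 2) :
    ∃ (W : Type u) (_ : Group W) (_ : Finite W) (σ : W →* Cfsg.SU 4 F 3),
      Cfsg.IsStemExtension σ ∧ Nonempty (σ.ker ≃* Multiplicative V9) := by
  classical
  obtain ⟨d, hd⟩ := K9.transport hF
  obtain ⟨G, hG0, hGinv, hGrel, hact⟩ := exists_letters hd hF SuFourThree.case_ok
  let g : ℕ → Equiv.Perm (Fin 540 × V9) × Cfsg.SU 4 F 3 := fun l => (lift l, G l)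
  have hg0 : g 0 = 1 := Prod.ext lift_zero hG0
  have hginv : ∀ l, g (linv l) = (g l)⁻¹ := fun l => Prod.ext (lift_linv l) (hGinv l)
  have hg7 : ∀ l, 7 ≤ l → g l = 1 := fun l hl => by
    have h := hginv l
    rw [show linv l = 0 from List.getD_eq_default _ _ (by simpa [invl] using hl), hg0] at h
    exact inv_eq_one.1 h.symm
  let Φ : FreeGroup (Fin 3) →* Equiv.Perm (Fin 540 × V9) × Cfsg.SU 4 F 3 :=
    FreeGroup.lift ![g 1, g 3, g 5]
  have hfg : ∀ l, Φ (fg l) = g l := by
    intro l
    rcases l with _ | _ | _ | _ | _ | _ | _ | l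
    · simp [fg, hg0]
    · simp [Φ, fg]
    · simp [Φ, fg]; exact (hginv 1).symm
    · simp [Φ, fg]
    · simp [Φ, fg]; exact (hginv 3).symm
    · simp [Φ, fg]
    · simp [Φ, fg]; exact (hginv 5).symm
    · simp [fg, hg7 (l + 7) (by omega)]
  have hval : ∀ u, Φ (pval fg u) = pval g u := fun u => by
    rw [map_pval]
    exact congrArg (fun f => pval f u) (funext hfg)
  have hfst : ∀ u, (pval g u).1 = pval lift u := fun u =>
    map_pval (MonoidHom.fst _ _) g u
  have hsnd : ∀ u, (pval g u).2 = pval G u := fun u =>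
    map_pval (MonoidHom.snd _ _) g u
  -- the relators and the presentation
  let f : FreeGroup (Fin 3) →* Cfsg.SU 4 F 3 := (MonoidHom.snd _ _).comp Φ
  have hrel : ∀ x ∈ (↑(relsF SuFourThree.rels) : Set (FreeGroup (Fin 3))), f x = 1 := by
    intro x hx
    rw [Finset.mem_coe, relsF, List.mem_toFinset, List.mem_map] at hx
    obtain ⟨u, hu, rfl⟩ := hx
    show (Φ (pval fg u)).2 = 1
    rw [hval, hsnd, hGrel u hu]
  have hliftf : ∀ x, f x = FreeGroup.lift (fun i => f (FreeGroup.of i)) x := fun x =>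
    DFunLike.congr_fun (FreeGroup.ext_hom f _ fun i => by simp) x
  have hrel' : ∀ x ∈ (↑(relsF SuFourThree.rels) : Set (FreeGroup (Fin 3))),
      FreeGroup.lift (fun i => f (FreeGroup.of i)) x = 1 := fun x hx => by
    rw [← hliftf]; exact hrel x hx
  let π := PresentedGroup.toGroup hrel'
  have hπ : ∀ x, π (PresentedGroup.mk _ x) = f x := fun x => (hliftf x).symm ▸ rfl
  obtain ⟨hfin, hle⟩ := card_presented_le SuFourThree.rels SuFourThree.steps (by decide +kernel)
    SuFourThree.valid (by decide +kernel)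
  have := hfin
  have hR : ∀ l, G l ∈ π.range := fun l => ⟨PresentedGroup.mk _ (fg l), by
    rw [hπ]; show (Φ (fg l)).2 = G l; rw [hfg]⟩
  have hcard := card_SU_four' hF
  have hlow : 13063680 ≤ Nat.card π.range :=
    ((by decide +kernel : 13063680 ≤ vProd [SuFourThree.level0, SuFourThree.level1,
      SuFourThree.level2]).trans
      (vProd_le hd G hact π.range hR _ [] SuFourThree.chain_valid)).trans
      (Nat.card_le_card_of_injective (fun x => (⟨x.1, x.2.1⟩ : π.range)) fun a b h =>
        Subtype.ext (congrArg (fun z : π.range => (z : Cfsg.SU 4 F 3)) h))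
  have hsurj : Function.Surjective π := MonoidHom.range_eq_top.1
    (Subgroup.eq_top_of_card_eq _ (le_antisymm (Subgroup.card_le_card_group _) (hcard ▸ hlow)))
  have hbij := hsurj.bijective_of_nat_card_le (by
    rw [hcard]; exact hle.trans (by decide +kernel))
  have hker : ∀ x, f x = 1 → x ∈ Subgroup.normalClosure
      (↑(relsF SuFourThree.rels) : Set (FreeGroup (Fin 3))) := by
    intro x hx
    exact (QuotientGroup.eq_one_iff x).1 (hbij.1 (((hπ x).trans hx).trans (map_one π).symm))
  -- translations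
  let κ : Multiplicative V9 →* Equiv.Perm (Fin 540 × V9) × Cfsg.SU 4 F 3 :=
    (MonoidHom.inl _ _).comp shift
  have hκ : ∀ a, κ a = (shift a, 1) := fun a => rfl
  have hcomm : ∀ (x : FreeGroup (Fin 3)) (a : Multiplicative V9), Commute (Φ x) (κ a) := by
    intro x a
    induction x using FreeGroup.induction_on with
    | C1 => rw [map_one]; exact Commute.one_left _
    | of i =>
      rw [hκ, FreeGroup.lift_apply_of]
      fin_cases i <;>
        exact Prod.ext ((lift_shift _ a).eq) ((Commute.one_right _).eq)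
    | inv_of i h => rw [map_inv]; exact h.inv_left
    | mul x y hx hy => rw [map_mul]; exact hx.mul_left hy
  have hN : (κ.range.comap Φ).Normal := ⟨fun x hx y => by
    obtain ⟨a, ha⟩ := hx
    refine ⟨a, ?_⟩
    rw [map_mul, map_mul, ← ha, map_inv, (hcomm y a).eq, mul_inv_cancel_right]⟩
  have hsub : Subgroup.normalClosure (↑(relsF SuFourThree.rels) : Set (FreeGroup (Fin 3))) ≤
      κ.range.comap Φ := by
    refine Subgroup.normalClosure_le_normal fun x hx => ?_
    rw [Finset.mem_coe, relsF, List.mem_toFinset, List.mem_map] at hx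
    obtain ⟨u, hu, rfl⟩ := hx
    obtain ⟨a, ha⟩ := pval_rel hu
    refine ⟨a, ?_⟩
    rw [hval]
    exact Prod.ext ((hfst u).trans ha.symm).symm ((hsnd u).trans (hGrel u hu)).symm
  -- the extension
  let π' : Φ.range →* Cfsg.SU 4 F 3 := (MonoidHom.snd _ _).comp Φ.range.subtype
  have hπ's : Function.Surjective π' := fun y => by
    obtain ⟨z, rfl⟩ := hsurj y
    obtain ⟨x, rfl⟩ := QuotientGroup.mk'_surjective _ z
    exact ⟨⟨Φ x, x, rfl⟩, (hπ x).symm⟩
  have hkerκ : ∀ z : Φ.range, π' z = 1 → (z : Equiv.Perm (Fin 540 × V9) × _) ∈ κ.range := by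
    rintro ⟨_, x, rfl⟩ hz
    exact hsub (hker x hz)
  have hπ'c : π'.ker ≤ Subgroup.center Φ.range := by
    intro z hz
    obtain ⟨a, ha⟩ := hkerκ z hz
    rw [Subgroup.mem_center_iff]
    rintro ⟨_, x, rfl⟩
    refine Subtype.ext ?_
    show Φ x * (z : Equiv.Perm (Fin 540 × V9) × _) = _ * Φ x
    rw [← ha]
    exact (hcomm x a).eq
  have hst := SchurBound.isStem_commutator
    (PSUMult.commutator_SU hF (by norm_num) (by norm_num)) π' hπ's hπ'c
  refine ⟨commutator Φ.range, inferInstance, inferInstance, π'.comp (commutator Φ.range).subtype,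
    hst, ?_⟩
  -- the kernel
  let ι : (π'.comp (commutator Φ.range).subtype).ker →*
      Equiv.Perm (Fin 540 × V9) × Cfsg.SU 4 F 3 :=
    Φ.range.subtype.comp ((commutator Φ.range).subtype.comp (MonoidHom.ker _).subtype)
  have hι : Function.Injective ι :=
    Subtype.val_injective.comp (Subtype.val_injective.comp Subtype.val_injective)
  have hκi : Function.Injective κ := fun a b h => by
    have h1 := congrArg (fun p => p.1 ((0 : Fin 540), (0 : V9))) h
    simpa [hκ, shift_apply] using h1
  have hgen : ∀ (a b w : List ℕ), w = a ++ b ++ winv a ++ winv b → (∀ l ∈ w, l < 7) →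
      (∀ j ∈ List.range 4, vrun K9.codes 4 SuFourThree.lets w (Codes.basisv 4 j) =
        Codes.basisv 4 j) →
      ∀ v, runW w 0 0 = (0, v) → κ (Multiplicative.ofAdd (toV v)) ∈ ι.range := by
    intro a b w hw hlt hfix v hrun
    have hone : pval G w = 1 := by
      refine Subtype.ext (Subtype.ext ?_)
      refine Matrix.ext_of_mulVec_single fun j => ?_
      show ((pval G w).1 : Matrix (Fin 4) (Fin 4) F).mulVec _ = (1 : Matrix _ _ F).mulVec _
      rw [← vecF_basisv hd j, (hact w _ (wf_basisv hd 4 j)).2, hfix j (List.mem_range.2 j.2),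
        Matrix.one_mulVec]
    obtain ⟨c, hc⟩ := hkerκ ⟨Φ (pval fg w), _, rfl⟩ ((congrArg Prod.snd (hval w)).trans
      ((hsnd w).trans hone))
    have hc' : κ c = pval g w := hc.trans (hval w)
    have hcv : c = Multiplicative.ofAdd (toV v) := pval_word hlt hrun
      (((congrArg Prod.fst hc').trans (hfst w)).symm)
    subst hcv
    let A : Φ.range := ⟨Φ (pval fg a), _, rfl⟩
    let B : Φ.range := ⟨Φ (pval fg b), _, rfl⟩
    have hAB : (⁅B⁻¹, A⁻¹⁆ : Φ.range).1 = pval g w := by
      rw [hw, winv_comm g hginv]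
      simp [A, B, hval, commutatorElement_def]
    refine ⟨⟨⟨⁅B⁻¹, A⁻¹⁆, Subgroup.commutator_mem_commutator (Subgroup.mem_top _)
      (Subgroup.mem_top _)⟩, ?_⟩, hAB.trans hc'.symm⟩
    show ((⁅B⁻¹, A⁻¹⁆ : Φ.range).1).2 = 1
    rw [hAB, hsnd, hone]
  have hrange : ι.range = κ.range := by
    refine le_antisymm ?_ ?_
    · rintro _ ⟨z, rfl⟩
      exact hkerκ z.1.1 z.2
    · rintro _ ⟨a, rfl⟩
      have h1 := hgen pairA pairA' wordA rfl words_lt.1 (fun j hj => (words_fix j hj).1) 1
        words_run.1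
      have h2 := hgen pairB pairB' wordB rfl words_lt.2 (fun j hj => (words_fix j hj).2) 3
        words_run.2
      have e : a = Multiplicative.ofAdd (toV 1) ^ (Multiplicative.toAdd a).1.val *
          Multiplicative.ofAdd (toV 3) ^ (Multiplicative.toAdd a).2.val := by
        refine Multiplicative.toAdd.injective ?_
        rw [toAdd_mul, toAdd_pow, toAdd_pow, toAdd_ofAdd, toAdd_ofAdd]
        exact v_basis _
      rw [e, map_mul, map_pow, map_pow]
      exact mul_mem (pow_mem h1 _) (pow_mem h2 _)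
  exact ⟨((MonoidHom.ofInjective hι).trans (MulEquiv.subgroupCongr hrange)).trans
    (MonoidHom.ofInjective hκi).symm⟩

end Cfsg.Agent.SchurUFour
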