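import Cfsg.Agent.SchurUFour.Upper
import Cfsg.Agent.SchurUFour.Cover
import Mathlib.GroupTheory.SpecificGroups.Cyclic

set_option autoImplicit false

/-!
The Schur multiplier of `PSU_4(3)`.
-/

namespace Cfsg.Agent.SchurUFour

open Cfsg Cfsg.Agent.CentralExt Subgroup
open scoped commutatorElement

universe u

/-- The preimage of the centre in a perfect central extension is central. -/
theorem comap_center_le {W : Type u} {S : Type u} [Group W] [Group S] (σ : W →* S)
    (hσc : σ.ker ≤ center W) (hperf : commutator W = ⊤) :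
    (center S).comap σ ≤ center W := by
  intro z hz
  have hz' : σ z ∈ center S := hz
  have hk : ∀ w : W, ⁅z, w⁆ ∈ center W := fun w => by
    apply hσc
    rw [MonoidHom.mem_ker, map_commutatorElement, commutatorElement_eq_one_iff_mul_comm]
    exact ((mem_center_iff.1 hz') (σ w)).symm
  have hmul : ∀ a b : W, ⁅z, a * b⁆ = ⁅z, a⁆ * ⁅z, b⁆ := fun a b => by
    have e1 : ⁅z, a * b⁆ = ⁅z, a⁆ * (a * ⁅z, b⁆ * a⁻¹) := by
      simp only [commutatorElement_def]; group
    rw [e1, (mem_center_iff.1 (hk b) a), mul_inv_cancel_right]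
  let f : W →* W :=
    { toFun := fun w => ⁅z, w⁆
      map_one' := commutatorElement_one_right z
      map_mul' := hmul }
  have hf : commutator W ≤ f.ker := by
    rw [_root_.commutator_def, Subgroup.commutator_le]
    intro a _ b _
    rw [MonoidHom.mem_ker, map_commutatorElement, commutatorElement_eq_one_iff_mul_comm]
    exact mem_center_iff.1 (hk b) _
  rw [mem_center_iff]
  intro w
  have h1 : ⁅z, w⁆ = 1 := hf (hperf ▸ mem_top w)
  exact (commutatorElement_eq_one_iff_mul_comm.1 h1).symm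

/-- A stem extension of a perfect group is perfect. -/
theorem perfect_of_stem {W : Type u} {S : Type u} [Group W] [Group S] {σ : W →* S}
    (hσ : IsStemExtension σ) (hperf : commutator S = ⊤) : commutator W = ⊤ := by
  refine top_le_iff.1 fun w _ => ?_
  have hw : σ w ∈ (commutator W).map σ := by
    rw [map_commutator_top σ hσ.1, hperf]; exact mem_top _
  obtain ⟨c, hc, hcw⟩ := hw
  have : c⁻¹ * w ∈ commutator W := hσ.2.2 (by
    rw [MonoidHom.mem_ker, map_mul, map_inv, hcw, inv_mul_cancel])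
  simpa using mul_mem hc this

variable {F : Type u} [Field F] [Fintype F]

/-- The multiplier of `PSU_4(3)` has order at most `36`. -/
theorem card_schurMult_PSU_four_le (hF : Fintype.card F = 3 ^ 2) :
    Nat.card (schurMult (Cfsg.PSU 4 F 3)) ≤ 36 := by
  have hperf := PSUMult.commutator_SU (n := 4) hF (by norm_num) (by norm_num)
  set mk := QuotientGroup.mk' (Subgroup.center (Cfsg.SU 4 F 3))
  have hmk : mk.ker = center (Cfsg.SU 4 F 3) := QuotientGroup.ker_mk' _
  have hstem : IsStemExtension mk :=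
    ⟨QuotientGroup.mk'_surjective _, hmk.le, by rw [hperf]; exact le_top⟩
  have hperfG : commutator (Cfsg.PSU 4 F 3) = ⊤ := by
    rw [← map_commutator_top mk (QuotientGroup.mk'_surjective _), hperf,
      map_top_of_surjective _ (QuotientGroup.mk'_surjective _)]
  obtain ⟨W, iW, fW, θ, hθ, ⟨eW⟩⟩ := exists_schurCover (Cfsg.PSU 4 F 3)
  obtain ⟨ψ0, h0, hs0, -⟩ := exists_hopfLift_stem hθ
  obtain ⟨ψ1, h1, hs1, -⟩ := exists_hopfLift_stem hstem
  let E := (ψ0.prod ψ1).range
  let p1 : E →* W := (MonoidHom.fst W _).comp E.subtype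
  let p2 : E →* Cfsg.SU 4 F 3 := (MonoidHom.snd W _).comp E.subtype
  have hp1 : Function.Surjective p1 := fun w => by
    obtain ⟨x, rfl⟩ := hs0 w
    exact ⟨⟨_, x, rfl⟩, rfl⟩
  have hp2 : Function.Surjective p2 := fun s => by
    obtain ⟨x, rfl⟩ := hs1 s
    exact ⟨⟨_, x, rfl⟩, rfl⟩
  have hker : p2.ker ≤ center E := by
    rintro ⟨_, x, rfl⟩ hz
    have hz' : ψ1 x = 1 := hz
    have hθx : ψ0 x ∈ θ.ker := by
      rw [MonoidHom.mem_ker, ← MonoidHom.comp_apply, h0, ← h1, MonoidHom.comp_apply, hz', map_one]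
    rw [mem_center_iff]
    rintro ⟨_, y, rfl⟩
    refine Subtype.ext (Prod.ext (mem_center_iff.1 (hθ.2.1 hθx) (ψ0 y)) ?_)
    show ψ1 y * ψ1 x = ψ1 x * ψ1 y
    rw [hz', mul_one, one_mul]
  have hst := SchurBound.isStem_commutator hperf p2 hp2 hker
  set σ := p2.comp (commutator E).subtype
  have hk9 : Nat.card σ.ker ≤ 9 := Nat.le_of_dvd (by norm_num)
    ((card_ker_dvd_schurMult hst).trans (card_schurMult_SU_four_dvd hF))
  have hcardE : Nat.card (commutator E) = Nat.card σ.ker * Nat.card (Cfsg.SU 4 F 3) := by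
    rw [← σ.ker.card_mul_index, index_ker, MonoidHom.range_eq_top.2 hst.1, card_top]
  have hsurW : Function.Surjective (p1.comp (commutator E).subtype) := by
    intro w
    have hw : w ∈ (commutator E).map p1 := by
      rw [map_commutator_top p1 hp1, perfect_of_stem hθ hperfG]; exact mem_top _
    obtain ⟨c, hc, rfl⟩ := hw
    exact ⟨⟨c, hc⟩, rfl⟩
  have hW := Nat.card_le_card_of_surjective _ hsurW
  have hWcard : Nat.card W = Nat.card (schurMult (Cfsg.PSU 4 F 3)) *
      Nat.card (Cfsg.PSU 4 F 3) := by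
    rw [← θ.ker.card_mul_index, index_ker, MonoidHom.range_eq_top.2 hθ.1, card_top,
      Nat.card_congr eW.toEquiv]
  have hSU : Nat.card (Cfsg.SU 4 F 3) = Nat.card (Cfsg.PSU 4 F 3) * 4 := by
    rw [Subgroup.card_eq_card_quotient_mul_card_subgroup (center (Cfsg.SU 4 F 3)),
      Cfsg.Agent.S0279.result hF 4 (by norm_num)]
    norm_num
  rw [hWcard, hcardE, hSU] at hW
  have hpos : 0 < Nat.card (Cfsg.PSU 4 F 3) := Nat.card_pos
  refine Nat.le_of_mul_le_mul_right (hW.trans ?_) hpos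
  calc Nat.card σ.ker * (Nat.card (Cfsg.PSU 4 F 3) * 4)
      ≤ 9 * (Nat.card (Cfsg.PSU 4 F 3) * 4) := Nat.mul_le_mul_right _ hk9
    _ = 36 * Nat.card (Cfsg.PSU 4 F 3) := by ring

/-- **The multiplier of `PSU_4(3)`.** -/
theorem multiplier_PSU_four_three (hF : Fintype.card F = 3 ^ 2) :
    HasSchurMultiplier (Cfsg.PSU 4 F 3) (Multiplicative (ZMod 4 × ZMod 3 × ZMod 3)) := by
  obtain ⟨W, iW, fW, σ, hσ, ⟨eV⟩⟩ := exists_cover hF
  have : Finite σ.ker := inferInstance
  have hperfS := PSUMult.commutator_SU (n := 4) hF (by norm_num) (by norm_num)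
  have hperfW := perfect_of_stem hσ hperfS
  set Z := center (Cfsg.SU 4 F 3)
  set τ := (QuotientGroup.mk' Z).comp σ
  have hτker : τ.ker = Z.comap σ := by
    rw [← MonoidHom.comap_ker, QuotientGroup.ker_mk']
  have hτ : IsStemExtension τ :=
    ⟨(QuotientGroup.mk'_surjective _).comp hσ.1,
      hτker.le.trans (comap_center_le σ hσ.2.1 hperfW), by rw [hperfW]; exact le_top⟩
  have hZ : Nat.card Z = 4 := by
    rw [Cfsg.Agent.S0279.result hF 4 (by norm_num)]; norm_num
  have hV : Nat.card σ.ker = 9 := by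
    rw [Nat.card_congr eV.toEquiv, Nat.card_congr Multiplicative.toAdd, Nat.card_prod,
      Nat.card_zmod]
  have hmemZ : ∀ x : τ.ker, σ x ∈ Z := fun x => hτker.le x.2
  have hpow : ∀ x : τ.ker, (x : W) ^ 4 ∈ σ.ker := fun x => by
    rw [MonoidHom.mem_ker, map_pow]
    have h : (⟨σ x, hmemZ x⟩ : Z) ^ Nat.card Z = 1 := pow_card_eq_one'
    rw [hZ] at h
    exact congrArg Subtype.val h
  let θ : τ.ker →* Z × σ.ker :=
    { toFun := fun x => (⟨σ x, hmemZ x⟩, ⟨(x : W) ^ 4, hpow x⟩)
      map_one' := Prod.ext (Subtype.ext (by simp)) (Subtype.ext (by simp))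
      map_mul' := fun a b => Prod.ext (Subtype.ext (map_mul σ (a : W) b))
        (Subtype.ext (Commute.mul_pow ((mem_center_iff.1 (hτ.2.1 b.2)) a) 4)) }
  have hk9 : ∀ k : W, k ∈ σ.ker → k ^ 9 = 1 := fun k hk => by
    have h : (⟨k, hk⟩ : σ.ker) ^ Nat.card σ.ker = 1 := pow_card_eq_one'
    rw [hV] at h
    exact congrArg Subtype.val h
  have hθi : Function.Injective θ := by
    rw [injective_iff_map_eq_one]
    intro x hx
    have h4 : (x : W) ^ 4 = 1 := congrArg (fun p : Z × σ.ker => (p.2 : W)) hx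
    have hσx : σ (x : W) = 1 := congrArg (fun p : Z × σ.ker => (p.1 : Cfsg.SU 4 F 3)) hx
    refine Subtype.ext ?_
    calc (x : W) = (x : W) ^ 9 := by
          rw [show (9 : ℕ) = 4 * 2 + 1 by norm_num, pow_add, pow_mul, h4, one_pow, one_mul,
            pow_one]
      _ = 1 := hk9 _ hσx
  have hθs : Function.Surjective θ := by
    rintro ⟨⟨c, hc⟩, ⟨k, hk⟩⟩
    obtain ⟨x, rfl⟩ := hσ.1 c
    have hc4 : σ x ^ 4 = 1 := by
      have h : (⟨σ x, hc⟩ : Z) ^ Nat.card Z = 1 := pow_card_eq_one'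
      rw [hZ] at h
      exact congrArg Subtype.val h
    have hk' : σ k = 1 := hk
    have hσy : σ (k ^ 7 * x ^ 9) = σ x := by
      rw [map_mul, map_pow, map_pow, hk', one_pow, one_mul,
        show (9 : ℕ) = 4 * 2 + 1 by norm_num, pow_add, pow_mul, hc4, one_pow, one_mul, pow_one]
    refine ⟨⟨k ^ 7 * x ^ 9, by rw [hτker]; exact mem_comap.2 (hσy.symm ▸ hc)⟩,
      Prod.ext (Subtype.ext hσy) (Subtype.ext ?_)⟩
    show (k ^ 7 * x ^ 9) ^ 4 = k
    have hcom : Commute (k ^ 7) (x ^ 9) :=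
      Commute.pow_pow ((mem_center_iff.1 (hσ.2.1 hk)) x).symm 7 9
    have hx4 : x ^ 4 ∈ σ.ker := by rw [MonoidHom.mem_ker, map_pow, hc4]
    rw [hcom.mul_pow, ← pow_mul k, ← pow_mul x, mul_comm 9 4, pow_mul x, hk9 _ hx4, mul_one,
      show 7 * 4 = 9 * 3 + 1 by norm_num, pow_add, pow_mul, hk9 _ hk, one_pow, one_mul, pow_one]
  have : IsCyclic Z := PSUMult.isCyclic_center_SU hF (by norm_num)
  have eZ : Z ≃* Multiplicative (ZMod 4) := mulEquivOfCyclicCardEq (by
    rw [hZ, Nat.card_congr Multiplicative.toAdd, Nat.card_zmod])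
  let e : τ.ker ≃* Multiplicative (ZMod 4 × ZMod 3 × ZMod 3) :=
    (MulEquiv.ofBijective θ ⟨hθi, hθs⟩).trans
      ((MulEquiv.prodCongr eZ eV).trans (MulEquiv.prodMultiplicative _ _).symm)
  refine hasSchurMultiplier_of_stem hτ ?_ e
  rw [Nat.card_congr e.toEquiv, Nat.card_congr Multiplicative.toAdd, Nat.card_prod,
    Nat.card_prod, Nat.card_zmod, Nat.card_zmod]
  exact (card_schurMult_PSU_four_le hF).trans (by norm_num)

end Cfsg.Agent.SchurUFour
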