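import Cfsg.Agent.SchurUFour.Code
import Cfsg.Agent.SchurUFour.Data
import Cfsg.Agent.SUPres.Small.Fields

set_option autoImplicit false
set_option maxRecDepth 100000

/-!
The checks of the certificates for `SU_4(3)`.
-/

namespace Cfsg.Agent.SchurUFour

open Cfsg.Agent.SUPres.Small

theorem rankCert_codes : ∀ c ∈ rankCert.D.gens ++ rankCert.D.gs,
    codeOk K9.codes c = true := by
  decide +kernel

theorem expoCert_codes : ∀ c ∈ expoCert.D.gens ++ expoCert.D.gs,
    codeOk K9.codes c = true := by
  decide +kernel

theorem rankCert_check : rankCert.check (mul4 K9.codes) one4 = true := by decide +kernel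

theorem expoCert_check : expoCert.check (mul4 K9.codes) one4 = true := by decide +kernel

end Cfsg.Agent.SchurUFour
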