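import Cfsg.Agent.SUPres.Small.Model
import Cfsg.Agent.SchurCert.Cert

set_option autoImplicit false
set_option linter.unusedSectionVars false

/-!
Elements of a four-dimensional special unitary group over coded fields, packed into numbers.
-/

namespace Cfsg.Agent.SchurUFour

open Cfsg.Agent.SUPres.Small Cfsg.Agent.SchurCert

/-- Sixteen entries of eight bits. -/
noncomputable def pack : List ℕ → ℕ :=
  List.rec (motive := fun _ => ℕ) 0 (fun x _ ih => Nat.add x (Nat.mul 256 ih))

/-- An entry. -/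
noncomputable def digit (c k : ℕ) : ℕ := Nat.land (Nat.shiftRight c (Nat.mul 8 k)) 255

theorem pack_cons (x : ℕ) (L : List ℕ) : pack (x :: L) = x + 256 * pack L := rfl

theorem digit_pack : ∀ (L : List ℕ), (∀ x ∈ L, x < 256) → ∀ k, digit (pack L) k = L.getD k 0
  | [], _, k => by
    show (0 >>> (8 * k)) &&& 255 = _
    simp
  | x :: L, h, k => by
    have hx : x < 256 := h x List.mem_cons_self
    show (pack (x :: L) >>> (8 * k)) &&& 255 = _
    rw [Nat.shiftRight_eq_div_pow, pack_cons,
      show (255 : ℕ) = 2 ^ 8 - 1 from rfl, Nat.and_two_pow_sub_one_eq_mod]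
    cases k with
    | zero => simp [Nat.add_mul_mod_self_left, Nat.mod_eq_of_lt hx]
    | succ k =>
      have e := digit_pack L (fun y hy => h y (List.mem_cons_of_mem _ hy)) k
      change (pack L >>> (8 * k)) &&& 255 = _ at e
      rw [Nat.shiftRight_eq_div_pow, show (255 : ℕ) = 2 ^ 8 - 1 from rfl,
        Nat.and_two_pow_sub_one_eq_mod] at e
      have h8 : 2 ^ (8 * (k + 1)) = 256 * 2 ^ (8 * k) := by
        rw [show 8 * (k + 1) = 8 + 8 * k by ring, pow_add]
        norm_num
      rw [h8, ← Nat.div_div_eq_div_mul, Nat.add_mul_div_left _ _ (by norm_num),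
        Nat.div_eq_of_lt hx, zero_add, e, List.getD_cons_succ]

variable (C : Codes)

/-- An entry of a product. -/
noncomputable def entryMul (a b i j : ℕ) : ℕ :=
  C.add (C.add (C.mul (digit a (Nat.mul 4 i)) (digit b j))
      (C.mul (digit a (Nat.add (Nat.mul 4 i) 1)) (digit b (Nat.add 4 j))))
    (C.add (C.mul (digit a (Nat.add (Nat.mul 4 i) 2)) (digit b (Nat.add 8 j)))
      (C.mul (digit a (Nat.add (Nat.mul 4 i) 3)) (digit b (Nat.add 12 j))))

/-- The product. -/
noncomputable def mul4 (a b : ℕ) : ℕ :=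
  pack [entryMul C a b 0 0, entryMul C a b 0 1, entryMul C a b 0 2, entryMul C a b 0 3,
    entryMul C a b 1 0, entryMul C a b 1 1, entryMul C a b 1 2, entryMul C a b 1 3,
    entryMul C a b 2 0, entryMul C a b 2 1, entryMul C a b 2 2, entryMul C a b 2 3,
    entryMul C a b 3 0, entryMul C a b 3 1, entryMul C a b 3 2, entryMul C a b 3 3]

/-- The identity. -/
noncomputable def one4 : ℕ := pack [1, 0, 0, 0, 0, 1, 0, 0, 0, 0, 1, 0, 0, 0, 0, 1]

/-- A coded matrix as a list of rows. -/
noncomputable def rows4 (c : ℕ) : List (List ℕ) :=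
  [[digit c 0, digit c 1, digit c 2, digit c 3], [digit c 4, digit c 5, digit c 6, digit c 7],
    [digit c 8, digit c 9, digit c 10, digit c 11], [digit c 12, digit c 13, digit c 14, digit c 15]]

/-- A code of an element. -/
noncomputable def codeOk (c : ℕ) : Bool :=
  C.elemOk 4 (rows4 c) && Nat.beq c (pack (rows4 c).flatten)

section Sem

variable {F : Type*} [Field F] [Fintype F] {C : Codes} {d : ℕ → F} {q : ℕ}

/-- The codes of field elements, from an interpretation. -/
theorem exists_fieldCode (hC : C.Sound d q) (hQ : C.Q = Fintype.card F) :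
    ∃ c : F → ℕ, (∀ x, c x < C.Q ∧ d (c x) = x) ∧ ∀ i < C.Q, c (d i) = i := by
  have hinj : Function.Injective fun i : Fin C.Q => d i := fun i j e =>
    Fin.ext (hC.inj i i.2 j j.2 e)
  have hb := (Fintype.bijective_iff_injective_and_card _).2 ⟨hinj, by simp [hQ]⟩
  choose c hc using hb.2
  exact ⟨fun x => c x, fun x => ⟨(c x).2, hc x⟩, fun i hi =>
    congrArg Fin.val (hb.1 ((hc (d i)).trans rfl) : c (d i) = ⟨i, hi⟩)⟩

/-- The code of a matrix. -/
noncomputable def encM (c : F → ℕ) (A : Matrix (Fin 4) (Fin 4) F) : ℕ :=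
  pack [c (A 0 0), c (A 0 1), c (A 0 2), c (A 0 3), c (A 1 0), c (A 1 1), c (A 1 2), c (A 1 3),
    c (A 2 0), c (A 2 1), c (A 2 2), c (A 2 3), c (A 3 0), c (A 3 1), c (A 3 2), c (A 3 3)]

variable (hC : C.Sound d q) {c : F → ℕ} (hc : ∀ x, c x < C.Q ∧ d (c x) = x)
  (hcd : ∀ i < C.Q, c (d i) = i) (h256 : C.Q ≤ 256)

include hc h256 in
theorem digit_encM (A : Matrix (Fin 4) (Fin 4) F) (i j : Fin 4) :
    digit (encM c A) (4 * i + j) = c (A i j) := by
  rw [encM, digit_pack]
  · fin_cases i <;> fin_cases j <;> rfl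
  · intro x hx
    simp only [List.mem_cons, List.not_mem_nil, or_false] at hx
    rcases hx with rfl | rfl | rfl | rfl | rfl | rfl | rfl | rfl | rfl | rfl | rfl | rfl | rfl |
      rfl | rfl | rfl <;> exact lt_of_lt_of_le (hc _).1 h256

include hC hc hcd h256 in
theorem entryMul_encM (A B : Matrix (Fin 4) (Fin 4) F) (i j : Fin 4) :
    entryMul C (encM c A) (encM c B) i j = c ((A * B) i j) := by
  have ha : ∀ k : Fin 4, digit (encM c A) (4 * i + k) = c (A i k) := digit_encM hc h256 A i
  have hb : ∀ k : Fin 4, digit (encM c B) (4 * k + j) = c (B k j) := fun k => digit_encM hc h256 B k j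
  have h0 := hb 0; have h1 := hb 1; have h2 := hb 2; have h3 := hb 3
  have a0 := ha 0; have a1 := ha 1; have a2 := ha 2; have a3 := ha 3
  simp only [Fin.val_zero, Fin.val_one, Fin.val_two, mul_zero, mul_one, zero_add, add_zero] at h0 h1 h2 a0 a1 a2
  rw [show ((3 : Fin 4) : ℕ) = 3 from rfl] at h3 a3
  have e : ∀ x y : F, C.mul (c x) (c y) = c (x * y) := fun x y => by
    obtain ⟨hlt, hd⟩ := hC.mul_ok _ (hc x).1 _ (hc y).1
    rw [← hcd _ hlt, hd, (hc x).2, (hc y).2]
  have e' : ∀ x y : F, C.add (c x) (c y) = c (x + y) := fun x y => by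
    obtain ⟨hlt, hd⟩ := hC.add_ok _ (hc x).1 _ (hc y).1
    rw [← hcd _ hlt, hd, (hc x).2, (hc y).2]
  simp only [entryMul, Nat.add_eq, Nat.mul_eq]
  norm_num at h2 h3
  rw [a0, a1, a2, a3, h0, h1, h2, h3]
  simp only [e, e', Matrix.mul_apply, Fin.sum_univ_four, add_assoc]

include hC hc hcd h256 in
theorem encM_mul (A B : Matrix (Fin 4) (Fin 4) F) :
    encM c (A * B) = mul4 C (encM c A) (encM c B) := by
  have h := entryMul_encM hC hc hcd h256 A B
  have h' : ∀ (i j : Fin 4), c ((A * B) i j) = entryMul C (encM c A) (encM c B) i j :=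
    fun i j => (h i j).symm
  rw [encM, mul4]
  simp only [h']
  rfl

include hC hcd in
theorem encM_one : encM c (1 : Matrix (Fin 4) (Fin 4) F) = one4 := by
  have h0 : c 0 = 0 := by
    have := hcd 0 (lt_of_lt_of_le Nat.zero_lt_two hC.two); rwa [hC.zero] at this
  have h1 : c 1 = 1 := by
    have := hcd 1 (lt_of_lt_of_le Nat.one_lt_two hC.two); rwa [hC.one] at this
  simp [encM, one4, h0, h1]

include hc h256 in
theorem encM_injective : Function.Injective (encM (F := F) c) := fun A B e => by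
  ext i j
  have := digit_encM hc h256 A i j
  rw [e, digit_encM hc h256 B i j] at this
  rw [← (hc (A i j)).2, ← this, (hc (B i j)).2]

include hcd in
theorem encM_matF {M : List (List ℕ)} (hM : C.wfM 4 M = true) :
    encM c (matF d 4 M) = pack M.flatten := by
  simp only [Codes.wfM, Bool.and_eq_true, decide_eq_true_eq, List.all_eq_true] at hM
  obtain ⟨hlen, hr⟩ := hM
  match M, hlen with
  | [r0, r1, r2, r3], _ =>
    have hrow : ∀ r ∈ [r0, r1, r2, r3], ∃ a b e f, r = [a, b, e, f] ∧
        a < C.Q ∧ b < C.Q ∧ e < C.Q ∧ f < C.Q := by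
      intro r hr'
      have h := hr r hr'
      simp only [Codes.wfV, Bool.and_eq_true, decide_eq_true_eq, List.all_eq_true] at h
      match r, h.1 with
      | [a, b, e, f], _ =>
        refine ⟨a, b, e, f, rfl, ?_, ?_, ?_, ?_⟩ <;>
          exact Nat.le_of_ble_eq_true (h.2 _ (by simp))
    obtain ⟨a0, b0, e0, f0, rfl, p0⟩ := hrow r0 (by simp)
    obtain ⟨a1, b1, e1, f1, rfl, p1⟩ := hrow r1 (by simp)
    obtain ⟨a2, b2, e2, f2, rfl, p2⟩ := hrow r2 (by simp)
    obtain ⟨a3, b3, e3, f3, rfl, p3⟩ := hrow r3 (by simp)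
    simp [encM, matF, Codes.ent, hcd, p0, p1, p2, p3]

end Sem

end Cfsg.Agent.SchurUFour
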