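import Cfsg.Agent.SchurUFour.Check
import Cfsg.Agent.SchurBound.Rank
import Cfsg.Agent.PSUMult.Main
import Cfsg.Agent.S0278

set_option autoImplicit false

/-!
The Schur multiplier of `SU_4(3)` has order dividing nine.
-/

namespace Cfsg.Agent.SchurUFour

open Cfsg.Agent.SUPres.Small Cfsg.Agent.SchurCert Cfsg.Agent.SchurBound Cfsg.Agent.CentralExt

universe u

variable {F : Type u} [Field F] [Fintype F]

theorem card_SU_four (hF : Fintype.card F = 3 ^ 2) :
    Nat.card (Cfsg.SU 4 F 3) = 13063680 := by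
  have h := S0278.result hF 4 (by norm_num)
  generalize Nat.card (Cfsg.SU 4 F 3) = m at h ⊢
  norm_num [Finset.prod_range_succ, Nat.even_iff] at h
  omega

attribute [local irreducible] pack encM mul4 one4

/-- The code of the group. -/
noncomputable def suCode {d : ℕ → F} (hd : K9.codes.Sound d 3) {c : F → ℕ}
    (hc : ∀ x, c x < K9.codes.Q ∧ d (c x) = x) (hcd : ∀ i < K9.codes.Q, c (d i) = i) :
    Code (Cfsg.SU 4 F 3) where
  mul := mul4 K9.codes
  one := one4
  enc g := encM c (g.1 : Matrix (Fin 4) (Fin 4) F)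
  enc_one := encM_one hd hcd
  enc_mul a b := encM_mul hd hc hcd (by decide) _ _
  enc_inj a b h := Subtype.ext (Subtype.ext (encM_injective hc (by decide) h))

theorem exists_suCode_enc (hF : Fintype.card F = 3 ^ 2) {d : ℕ → F} (hd : K9.codes.Sound d 3)
    {c : F → ℕ} (hc : ∀ x, c x < K9.codes.Q ∧ d (c x) = x)
    (hcd : ∀ i < K9.codes.Q, c (d i) = i) {L : List ℕ} (hL : ∀ k ∈ L, codeOk K9.codes k = true)
    (i : ℕ) : ∃ g : Cfsg.SU 4 F 3, (suCode hd hc hcd).enc g = L.getD i one4 := by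
  rcases lt_or_ge i L.length with hi | hi
  · rw [List.getD_eq_getElem _ _ hi]
    have h := hL _ (List.getElem_mem hi)
    simp only [codeOk, Bool.and_eq_true] at h
    obtain ⟨hwf, hdet, hadj⟩ := elem_mem hd hF h.1
    refine ⟨⟨⟨matF d 4 (rows4 L[i]), hdet⟩, (Spec.Unitary.mem_SU_iff hF _).2 hadj⟩, ?_⟩
    exact (encM_matF hcd hwf).trans (Nat.eq_of_beq_eq_true h.2).symm
  · rw [List.getD_eq_default _ _ hi]
    exact ⟨1, (suCode hd hc hcd).enc_one⟩

theorem exists_applies (hF : Fintype.card F = 3 ^ 2) {d : ℕ → F} (hd : K9.codes.Sound d 3)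
    {c : F → ℕ} (hc : ∀ x, c x < K9.codes.Q ∧ d (c x) = x)
    (hcd : ∀ i < K9.codes.Q, c (d i) = i) (B : BCert) (hP : B.D.P.p = 3) (hn : B.D.P.n = 6)
    (hcodes : ∀ k ∈ B.D.gens ++ B.D.gs, codeOk K9.codes k = true)
    (hchk : B.check (mul4 K9.codes) one4 = true) :
    ∃ gen gsE : ℕ → Cfsg.SU 4 F 3, Applies (suCode hd hc hcd) B 3 gen gsE := by
  have hone : (suCode (F := F) hd hc hcd).one = one4 := rfl
  choose gen hgen using exists_suCode_enc hF hd hc hcd
    (L := B.D.gens) (fun k hk => hcodes k (List.mem_append_left _ hk))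
  choose gsE hgs using exists_suCode_enc hF hd hc hcd
    (L := B.D.gs) (fun k hk => hcodes k (List.mem_append_right _ hk))
  refine ⟨gen, gsE, by norm_num, hP, fun i _ => hgen i, hgs, ?_, hchk⟩
  have hk := hchk
  simp only [BCert.check, Bool.and_eq_true] at hk
  obtain ⟨-, hcard⟩ := card_initGroup_of_groupOK (suCode hd hc hcd) B.D
    (hP.symm ▸ (by norm_num : Nat.Prime 3)) gen (fun i _ => hgen i) hk.1.1.1 hk.1.1.2
  rw [index_initGroup (card_SU_four hF) (q := 729) (m := 17920)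
    (by rw [hcard, hP, hn]; norm_num) (by norm_num)]
  norm_num

/-- The multiplier of `SU_4(3)` has order dividing `9`. -/
theorem card_schurMult_SU_four_dvd (hF : Fintype.card F = 3 ^ 2) :
    Nat.card (schurMult (Cfsg.SU 4 F 3)) ∣ 9 := by
  obtain ⟨d, hd⟩ := K9.transport hF
  obtain ⟨c, hc, hcd⟩ := exists_fieldCode hd (hF ▸ rfl)
  obtain ⟨g1, e1, h1⟩ := exists_applies hF hd hc hcd rankCert rfl rfl rankCert_codes rankCert_check
  obtain ⟨g2, e2, h2⟩ := exists_applies hF hd hc hcd expoCert rfl rfl expoCert_codes expoCert_check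
  have h3 := factorization_schurMult_le_rank (suCode hd hc hcd) h1 h2 (r := 2) (k := 1) rfl rfl
    (by decide) rfl rfl rfl
  obtain ⟨p, φ, hfld⟩ := PSUMult.exists_fld hF
  have hr : ∀ r : ℕ, r.Prime → r ≠ 3 → ¬ r ∣ Nat.card (schurMult (Cfsg.SU 4 F 3)) := by
    intro r hr hr3
    have : Fact r.Prime := ⟨hr⟩
    obtain ⟨e⟩ := nonempty_schurMult_congr (PSUMult.suiEquiv (n := 4) hfld.phi)
    rw [← Nat.card_congr e.toEquiv]
    exact PSUMult.not_dvd_schurMult_cross hfld
      (fun h => hr3 ((Nat.prime_dvd_prime_iff_eq hr Nat.prime_three).1 h)) 4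
  have hne : Nat.card (schurMult (Cfsg.SU 4 F 3)) ≠ 0 := Nat.card_pos.ne'
  rw [← Nat.factorization_le_iff_dvd hne (by norm_num)]
  intro r
  by_cases hr' : r.Prime
  · by_cases h : r = 3
    · subst h
      rw [show (9 : ℕ) = 3 ^ 2 by norm_num, Nat.Prime.factorization_pow hr', Finsupp.single_eq_same]
      simpa using h3
    · rw [Nat.factorization_eq_zero_of_not_dvd (hr r hr' h)]
      exact Nat.zero_le _
  · rw [Nat.factorization_eq_zero_of_not_prime _ hr']
    exact Nat.zero_le _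

end Cfsg.Agent.SchurUFour
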